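import Cfsg.Agent.H722.LB.Sq

/-!
# Elements of order 11 of the Monster commute with axis involutions (helper722)
-/

set_option autoImplicit false
set_option maxRecDepth 100000

namespace Cfsg.Agent.H722.LB

open Cfsg Cfsg.Agent.MonsterX Cfsg.Agent.MonsterX.Space Cfsg.Agent.MonsterX.InstData Cfsg.Agent.MonsterX.MainPack
open Cfsg.Agent.MonsterX.Model Cfsg.Agent.MonsterX.MainBasic
open Cfsg.Agent.H816.MSch Cfsg.Agent.H816.MEnt
open Cfsg.Agent.H444.FprM (MG card_M)
open Cfsg.Agent.H715.Mon.Colour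

theorem orderOf_tt : orderOf (tt : MG) = 2 := by
  refine orderOf_eq_prime ?_ (fun h => hR.t₀_ne (congrArg Subtype.val h))
  rw [pow_two]
  exact Subtype.ext hR.t₀_sq

theorem orderOf_isT {s : MG} (hs : IsT s) : orderOf s = 2 := by
  obtain ⟨h, rfl⟩ := hs
  rw [orderOf_conj, orderOf_tt]

theorem card_cent_tt : Nat.card (Subgroup.centralizer ({tt} : Set MG)) = 2 * 4154781481226426191177580544000000 :=
  card_cent_t hG hR hL hO hT

/-- **An element of prime order `p ∣ 2 |B|` which is conjugate to all elements of its order commutes with an axis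
involution.** -/
theorem exists_axis_inv {p : ℕ} [hp : Fact p.Prime] (hd : p ∣ 2 * 4154781481226426191177580544000000) {x : MG}
    (hc : ∀ y : MG, orderOf y = p → IsConj y x) : ∃ s : MG, IsT s ∧ orderOf s = 2 ∧ s * x = x * s := by
  have := Cfsg.Agent.H444.FprM.finite
  obtain ⟨y, hy⟩ := exists_prime_orderOf_dvd_card' (G := Subgroup.centralizer ({tt} : Set MG)) p
    (by rw [card_cent_tt]; exact hd)
  have hy' : orderOf (y : MG) = p := by rw [Subgroup.orderOf_coe, hy]
  have h1 : (y : MG) * tt = tt * y := Subgroup.mem_centralizer_singleton_iff.1 y.2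
  obtain ⟨g, hg⟩ := isConj_iff.1 (hc _ hy')
  refine ⟨g * tt * g⁻¹, ⟨g, rfl⟩, by rw [orderOf_conj, orderOf_tt], ?_⟩
  rw [← hg]
  calc g * tt * g⁻¹ * (g * (y : MG) * g⁻¹) = g * (tt * y) * g⁻¹ := by group
    _ = g * (y * tt) * g⁻¹ := by rw [h1]
    _ = g * (y : MG) * g⁻¹ * (g * tt * g⁻¹) := by group

theorem exists_axis_inv_eleven {x : MG} (hc : ∀ y : MG, orderOf y = 11 → IsConj y x) :
    ∃ s : MG, IsT s ∧ orderOf s = 2 ∧ s * x = x * s :=
  haveI : Fact (Nat.Prime 11) := ⟨by norm_num⟩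
  exists_axis_inv (by norm_num) hc

end Cfsg.Agent.H722.LB
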