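import Cfsg.Agent.H740.RatM.Perm
import Cfsg.Agent.H715.Mon.Colour

/-!
# The values of the characters of the rank 9 action of the Monster at the axis involutions (helper722)

* `sq` : the colour of `(w, t w)` for an axis `w` of colour `u` with the base axis, `t` the involution of the base axis;
* `sq_eq_sqL` : `sq = 0, 0, 0, 3, 4, 2, 1, 7, 3` (divisibility of the subdegrees and integrality of the value of the
  character of degree `196883`);
* `exists_val` : the value of each constituent at `t`.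
-/

set_option autoImplicit false
set_option maxRecDepth 100000

namespace Cfsg.Agent.H722.LB

open Cfsg Cfsg.Agent.MonsterX Cfsg.Agent.MonsterX.Space Cfsg.Agent.MonsterX.InstData Cfsg.Agent.MonsterX.MainPack
open Cfsg.Agent.MonsterX.Model Cfsg.Agent.MonsterX.MainBasic
open Cfsg.Agent.H816.MSch Cfsg.Agent.H816.MEnt Cfsg.Agent.H816.IMEig Cfsg.Agent.H816.MEigL Cfsg.Agent.H816.MDeg
open Cfsg.Agent.H444.FprM (MG card_M)
open Cfsg.Agent.H715.Mon.Colour Cfsg.Agent.H740.RatM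
open Cfsg.Agent.H145.BR Cfsg.Agent.H493.RatB
open scoped BigOperators

open Classical in
/-- the colour of `(w, t w)` -/
noncomputable def sq (u : Fin 9) : Fin 9 := if h : ∃ w : XT, c b0 w = u then c h.choose (tt • h.choose) else 0

theorem tt_b0 : (tt : MG) • b0 = b0 := (smul_b0 tt).2 rfl

theorem c_sq (w : XT) : c w ((tt : MG) • w) = sq (c b0 w) := by
  have h : ∃ w' : XT, c b0 w' = c b0 w := ⟨w, rfl⟩
  unfold sq
  rw [dif_pos h]
  obtain ⟨g, hg1, hg2⟩ := c_tr b0 h.choose b0 w h.choose_spec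
  have h1 : g * tt = tt * g := (smul_b0 g).1 hg1
  rw [← c_inv g h.choose, hg2, smul_smul, h1, mul_smul, hg2]

theorem tt_b1 : (tt : MG) • b1 = b1 := by
  have h1 : (tt : MG) • b0 = b0 := tt_b0
  have h2 : (tt : V ≃ₗ[ℚ] V) M.a₀ = M.a₀ := congrArg Subtype.val h1
  apply Subtype.ext
  show (tt : V ≃ₗ[ℚ] V) M.a₁ = M.a₁
  have h3 : M.σ M.a₀ = M.a₁ := σ_a₀ hR
  rw [← h3]
  have h4 : (tt : V ≃ₗ[ℚ] V) ∈ M.C := hG.Q_le hR.t₀_mem
  rw [← hR.σ_comm _ h4, h2]

theorem sq_zero : sq 0 = 0 := by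
  have h := c_sq b0
  rw [tt_b0, (c_diag b0 b0).2 rfl] at h
  exact h.symm

theorem sq_two : sq 2 = 0 := by
  have h := c_sq b1
  rw [tt_b1, (c_diag b1 b1).2 rfl, c_b1] at h
  exact h.symm

theorem exists_w (u : Fin 9) : ∃ w : XT, c b0 w = u := by
  have h := kk_eq u
  have h1 := k_pos u
  unfold Col.kk at h
  rw [← h] at h1
  obtain ⟨⟨w, hw⟩⟩ := (Nat.card_pos_iff.1 h1).1
  exact ⟨w, hw⟩

theorem sq_ne : ∃ u, sq u ≠ 0 := by
  by_contra h
  push Not at h
  apply hR.t₀_ne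
  have h1 : ∀ w : XT, (tt : MG) • w = w := by
    intro w
    have h2 := c_sq w
    rw [h] at h2
    exact ((c_diag _ _).1 h2).symm
  apply LinearEquiv.toLinearMap_injective
  apply LinearMap.ext_on hO.X_span
  intro x hx
  exact congrArg Subtype.val (h1 ⟨x, hx⟩)

/-! ### Divisibility -/

theorem card_orbit (x y : XT) :
    Nat.card (MulAction.orbit MG (x, y)) = 97239461142009186000 * k (c x y) := by
  rw [← card_pairs]
  apply Nat.card_congr
  refine ⟨fun p => ⟨p.1, ?_⟩, fun p => ⟨p.1, ?_⟩, fun _ => rfl, fun _ => rfl⟩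
  · obtain ⟨_, ⟨g, rfl⟩⟩ := p
    exact c_inv g _ _
  · obtain ⟨⟨a, b⟩, hab⟩ := p
    obtain ⟨g, hg1, hg2⟩ := c_tr x y a b hab.symm
    exact ⟨g, Prod.ext hg1 hg2⟩

/-- **The subdegree of `sq u` divides the subdegree of `u`.** -/
theorem k_sq_dvd (u : Fin 9) : k (sq u) ∣ k u := by
  have hf := Cfsg.Agent.H444.FprM.finite
  obtain ⟨w, rfl⟩ := exists_w u
  have h1 := Nat.card_congr (MulAction.orbitProdStabilizerEquivGroup MG (b0, w))
  have h2 := Nat.card_congr (MulAction.orbitProdStabilizerEquivGroup MG (w, (tt : MG) • w))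
  rw [Nat.card_prod, card_orbit] at h1 h2
  rw [c_sq] at h2
  have h3 : MulAction.stabilizer MG (b0, w) ≤ MulAction.stabilizer MG (w, (tt : MG) • w) := by
    intro g hg
    have hg' : (g • b0, g • w) = (b0, w) := hg
    have e1 : g • b0 = b0 := congrArg Prod.fst hg'
    have e2 : g • w = w := congrArg Prod.snd hg'
    have e3 : g * tt = tt * g := (smul_b0 g).1 e1
    show (g • w, g • (tt : MG) • w) = (w, (tt : MG) • w)
    rw [e2, smul_smul, e3, mul_smul, e2]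
  obtain ⟨m, hm⟩ := Subgroup.card_dvd_of_le h3
  rw [hm, ← h1] at h2
  have h4 : 0 < Nat.card (MulAction.stabilizer MG (b0, w)) := Nat.card_pos
  refine ⟨m, ?_⟩
  have h5 : (97239461142009186000 * Nat.card (MulAction.stabilizer MG (b0, w))) * k (c b0 w) =
      (97239461142009186000 * Nat.card (MulAction.stabilizer MG (b0, w))) * (k (sq (c b0 w)) * m) := by
    calc _ = 97239461142009186000 * k (c b0 w) * Nat.card (MulAction.stabilizer MG (b0, w)) := by ring
      _ = _ := by rw [← h2]; ring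
  exact Nat.eq_of_mul_eq_mul_left (by positivity) h5

/-! ### The values -/

theorem sph_tt (ω : Fin 9 → ℂ) : sph ω tt = ∑ u, (k u : ℂ) * ω (sq u) := by
  classical
  have := Fintype.ofFinite XT
  unfold sph
  rw [finsum_eq_sum_of_fintype]
  simp_rw [c_sq]
  rw [← Finset.sum_fiberwise (s := Finset.univ) (g := fun x : XT => c b0 x)]
  refine Finset.sum_congr rfl fun u _ => ?_
  have h1 : ∀ x ∈ Finset.univ.filter (fun x : XT => c b0 x = u), ω (sq (c b0 x)) = ω (sq u) := by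
    intro x hx
    rw [(Finset.mem_filter.1 hx).2]
  rw [Finset.sum_congr rfl h1, Finset.sum_const, nsmul_eq_mul]
  congr 2
  rw [← kk_eq u]
  unfold Col.kk
  rw [Nat.card_eq_fintype_card, Fintype.card_subtype]

theorem isInt {χ : IrrCharacter MG} {a : ℚ} (g : MG) (h : (χ : MG → ℂ) g = a) : ∃ m : ℤ, (χ : MG → ℂ) g = m := by
  have := finite_G
  have h1 : IsIntegral ℤ ((χ : MG → ℂ) g) := Cfsg.Agent.CharactersDeep.ModCongr.isIntegral_irr χ.2 g
  rw [h] at h1
  have h2 : IsIntegral ℤ a := (isIntegral_algebraMap_iff (algebraMap ℚ ℂ).injective).1 h1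
  obtain ⟨m, hm⟩ := IsIntegrallyClosed.isIntegral_iff.1 h2
  refine ⟨m, ?_⟩
  rw [h, ← hm]
  simp

theorem exists_val {P : Fin 9 → Fin 9 → ℤ} {θ D : ℤ} {ω : Fin 9 → ℤ} {R : Fin 9 → Fin 9 → ℤ} {r : Fin 9 → ℤ} {f : ℕ}
    (h : Dat t k P 2 θ D ω R r 97239461142009186000 f) :
    ∃ χ : IrrCharacter MG, (χ : MG → ℂ) 1 = f ∧ RatV (χ : MG → ℂ) ∧
      (∀ g, (χ : MG → ℂ) g = ((f : ℂ) / 97239461142009186000) * sph (fun u => (ω u : ℂ) / (D : ℂ)) g) ∧
      ∃ m : ℤ, (χ : MG → ℂ) tt = m ∧ (f : ℤ) * ∑ u, (k u : ℤ) * ω (sq u) = m * (97239461142009186000 * D) := by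
  obtain ⟨χ, h1, h2, h3⟩ := exists_value h
  obtain ⟨a, ha⟩ := h2 tt
  obtain ⟨m, hm⟩ := isInt tt ha
  refine ⟨χ, h1, h2, h3, m, hm, ?_⟩
  have h4 := h3 tt
  rw [hm, sph_tt] at h4
  have hD : (D : ℂ) ≠ 0 := by exact_mod_cast h.hD
  have h5 : ((f : ℂ) * ∑ u, (k u : ℂ) * (ω (sq u) : ℂ)) = m * (97239461142009186000 * (D : ℂ)) := by
    rw [h4]
    simp_rw [← mul_div_assoc]
    rw [← Finset.sum_div]
    field_simp
  exact_mod_cast h5

/-! ### The table -/

/-- the values of `sq` -/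
def sqL (u : Fin 9) : Fin 9 := [0, 0, 0, 3, 4, 2, 1, 7, 3].getD u.1 0

/-- the possible values of `sq` -/
def cand (u : Fin 9) : List (Fin 9) :=
  [[0], [0, 1], [0, 2], [0, 3], [0, 4], [0, 2, 5], [0, 1, 6], [0, 7], [0, 1, 3, 8]].getD u.1 []

theorem cand_ok : ∀ u v : Fin 9, k v ∣ k u → v ∈ cand u := by decide +kernel

/-- the summands -/
def KW (u v : Fin 9) : ℤ := (k u : ℤ) * vec [752, 80, -16, 23, -4, 8, -4, 2, -1] v

/-- one case -/
def one (a b c d e f g : Fin 9) : Bool :=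
  !(decide ((97239461142009186000 * 752 : ℤ) ∣ 196883 * (KW 0 0 + KW 1 a + KW 2 0 + KW 3 b + KW 4 c + KW 5 d + KW 6 e +
    KW 7 f + KW 8 g))) || decide (a = 0 ∧ b = 0 ∧ c = 0 ∧ d = 0 ∧ e = 0 ∧ f = 0 ∧ g = 0) ||
    decide (a = 0 ∧ b = 3 ∧ c = 4 ∧ d = 2 ∧ e = 1 ∧ f = 7 ∧ g = 3)

theorem all_ok : ((cand 1).all fun a => (cand 3).all fun b => (cand 4).all fun c => (cand 5).all fun d =>
    (cand 6).all fun e => (cand 7).all fun f => (cand 8).all fun g => one a b c d e f g) = true := by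
  decide +kernel

theorem num {a b c d e f g : Fin 9} (ha : a ∈ cand 1) (hb : b ∈ cand 3) (hc : c ∈ cand 4) (hd : d ∈ cand 5)
    (he : e ∈ cand 6) (hf : f ∈ cand 7) (hg : g ∈ cand 8)
    (h : (97239461142009186000 * 752 : ℤ) ∣ 196883 * (KW 0 0 + KW 1 a + KW 2 0 + KW 3 b + KW 4 c + KW 5 d + KW 6 e +
      KW 7 f + KW 8 g)) : (a = 0 ∧ b = 0 ∧ c = 0 ∧ d = 0 ∧ e = 0 ∧ f = 0 ∧ g = 0) ∨
        (a = 0 ∧ b = 3 ∧ c = 4 ∧ d = 2 ∧ e = 1 ∧ f = 7 ∧ g = 3) := by
  have h1 := all_ok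
  rw [List.all_eq_true] at h1
  have h2 := h1 a ha
  rw [List.all_eq_true] at h2
  have h3 := h2 b hb
  rw [List.all_eq_true] at h3
  have h4 := h3 c hc
  rw [List.all_eq_true] at h4
  have h5 := h4 d hd
  rw [List.all_eq_true] at h5
  have h6 := h5 e he
  rw [List.all_eq_true] at h6
  have h7 := h6 f hf
  rw [List.all_eq_true] at h7
  have h8 := h7 g hg
  unfold one at h8
  rw [Bool.or_eq_true, Bool.or_eq_true, Bool.not_eq_true', decide_eq_false_iff_not, decide_eq_true_eq,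
    decide_eq_true_eq] at h8
  rcases h8 with (h8 | h8) | h8
  · exact absurd h h8
  · exact Or.inl h8
  · exact Or.inr h8

theorem sum9' (f : Fin 9 → ℤ) : ∑ u, f u = f 0 + f 1 + f 2 + f 3 + f 4 + f 5 + f 6 + f 7 + f 8 := by
  simp only [Fin.sum_univ_succ, Fin.sum_univ_zero]
  ring_nf
  rfl

/-- **The table of `sq`.** -/
theorem sq_eq_sqL : ∀ u, sq u = sqL u := by
  obtain ⟨χ, -, -, -, m, -, hm⟩ := exists_val dat_196883
  have hc : ∀ u, sq u ∈ cand u := fun u => cand_ok u _ (k_sq_dvd u)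
  have h1 : (97239461142009186000 * 752 : ℤ) ∣ 196883 * (KW 0 0 + KW 1 (sq 1) + KW 2 0 + KW 3 (sq 3) + KW 4 (sq 4) +
      KW 5 (sq 5) + KW 6 (sq 6) + KW 7 (sq 7) + KW 8 (sq 8)) := by
    refine ⟨m, ?_⟩
    rw [mul_comm _ m, ← hm, sum9']
    simp only [KW]
    rw [sq_zero, sq_two]
    push_cast
    ring
  rcases num (hc 1) (hc 3) (hc 4) (hc 5) (hc 6) (hc 7) (hc 8) h1 with
    ⟨a, b, c, d, e, f, g⟩ | ⟨a, b, c, d, e, f, g⟩
  · exfalso
    obtain ⟨u, hu⟩ := sq_ne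
    apply hu
    fin_cases u
    · exact sq_zero
    · exact a
    · exact sq_two
    · exact b
    · exact c
    · exact d
    · exact e
    · exact f
    · exact g
  · intro u
    fin_cases u
    · exact sq_zero
    · exact a
    · exact sq_two
    · exact b
    · exact c
    · exact d
    · exact e
    · exact f
    · exact g

/-- **The displacement of an axis under the involution of another axis.** -/
theorem c_smul_tt (w : XT) : c w ((tt : MG) • w) = sqL (c b0 w) := by rw [c_sq, sq_eq_sqL]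

/-- the same for any two axis involutions -/
theorem ka_conj {s s' : MG} (hs : IsT s) (hs' : IsT s') : ka s' (s * s' * s⁻¹) = sqL (ka s s') := by
  obtain ⟨h, rfl⟩ := hs
  unfold ka
  rw [ax_conj hs', ax_eq, mul_smul, mul_smul, ← c_inv h⁻¹, inv_smul_smul, ← c_inv h⁻¹ (h • b0), inv_smul_smul]
  exact c_smul_tt _

/-- the sum `∑ k u ω (sqL u)` -/
theorem sph_tt' (ω : Fin 9 → ℂ) : sph ω tt = ∑ u, (k u : ℂ) * ω (sqL u) := by
  rw [sph_tt]
  simp_rw [sq_eq_sqL]

theorem sph_conj (ω : Fin 9 → ℂ) (h g : MG) : sph ω (h * g * h⁻¹) = sph ω g := by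
  unfold sph
  rw [← finsum_comp_equiv (MulAction.toPerm h : Equiv.Perm XT)]
  refine finsum_congr fun x => ?_
  show ω (c (h • x) ((h * g * h⁻¹) • h • x)) = _
  rw [mul_smul, inv_smul_smul, mul_smul, c_inv]

theorem sph_isT (ω : Fin 9 → ℂ) {s : MG} (hs : IsT s) : sph ω s = ∑ u, (k u : ℂ) * ω (sqL u) := by
  obtain ⟨h, rfl⟩ := hs
  rw [sph_conj, sph_tt']

end Cfsg.Agent.H722.LB
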